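import Cfsg.Agent.H419.LeechIrr

/-!
# A character of a simple group is a multiple of the principal one plus an irreducible one (helper101)

`irr_of_orbit` : `f : H →* G`, the nonprincipal constituents of `χ ∘ f` are conjugate under automorphisms of `H` induced
by `G` and have multiplicity one.
-/

set_option autoImplicit false

namespace Cfsg.Agent.H101.K4

open Cfsg Cfsg.Agent.H713 Cfsg.Agent.Characters.Core Cfsg.Agent.H419.LeechIrr
open scoped ComplexConjugate

variable {G : Type*} [Group G]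

/-- the multiplicity is the same for conjugate characters -/
theorem classInner_conj {H : Type*} [Group H] [Fintype H] (f : H →* G) {ψ : G → ℂ} (hψ : IsClassFunction G ψ)
    (n : G) (τ : H ≃ H) (hτ : ∀ h, n * f h * n⁻¹ = f (τ h)) (θ : H → ℂ) :
    classInner (ψ ∘ f) (fun h => θ (τ h)) = classInner (ψ ∘ f) θ := by
  rw [classInner_def, classInner_def]
  congr 1
  rw [← Equiv.sum_comp τ fun h => (ψ ∘ f) h * conj (θ h)]
  refine Finset.sum_congr rfl fun h _ => ?_
  show ψ (f h) * _ = ψ (f (τ h)) * _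
  rw [← hτ, hψ]

/-- **Decomposition from the restriction to a subgroup, orbit form.** -/
theorem irr_of_orbit [Fintype G] [IsSimpleGroup G] {H : Type*} [Group H] [Fintype H] (f : H →* G)
    (hf : ∃ h, f h ≠ 1) {χ : G → ℂ} (hχ : IsCharacter G χ) {θ : H → ℂ} (hθ : IsIrrCharacter H θ)
    (hθ1 : θ ≠ 1) (h1 : classInner (χ ∘ f) θ = 1)
    (horb : ∀ η : H → ℂ, IsIrrCharacter H η → η ≠ 1 → classInner (χ ∘ f) η ≠ 0 → ∀ ψ : IrrCharacter G,
      classInner ((ψ : G → ℂ) ∘ f) η = classInner ((ψ : G → ℂ) ∘ f) θ) :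
    ∃ μ : IrrCharacter G, (μ : G → ℂ) ≠ 1 ∧ ∃ m : ℕ, ∀ g, χ g = m + (μ : G → ℂ) g := by
  classical

  have : Finite (IrrCharacter G) := finite_irr
  have := Fintype.ofFinite (IrrCharacter G)
  obtain ⟨m, hm⟩ := exists_nat_comb hχ
  have hsum : ∀ η : H → ℂ, classInner (χ ∘ f) η =
      ∑ ψ : IrrCharacter G, (m ψ : ℂ) * classInner ((ψ : G → ℂ) ∘ f) η := by
    intro η
    have h1 : χ ∘ f = ∑ ψ : IrrCharacter G, (m ψ : ℂ) • ((ψ : G → ℂ) ∘ f) := by
      funext h
      rw [hm]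
      simp [Finset.sum_apply]
    rw [h1, classInner_sum_left]
    exact Finset.sum_congr rfl fun ψ _ => classInner_smul_left _ _ _
  have hnat : ∀ (η : H → ℂ) (ψ : IrrCharacter G), IsIrrCharacter H η →
      ∃ n : ℕ, classInner ((ψ : G → ℂ) ∘ f) η = n := fun η ψ hη =>
    classInner_isNat (isCharacter_comp f (isIrr_isCharacter ψ.2)) (isIrr_isCharacter hη)
  choose! n hn using fun (ψ : IrrCharacter G) (η : H → ℂ) (hη : IsIrrCharacter H η) => hnat η ψ hη
  have hsumN : ∀ η : H → ℂ, IsIrrCharacter H η →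
      classInner (χ ∘ f) η = ((∑ ψ : IrrCharacter G, m ψ * n ψ η : ℕ) : ℂ) := by
    intro η hη
    rw [hsum η, Finset.sum_congr rfl fun ψ _ => by rw [hn ψ η hη]]
    push_cast
    rfl
  -- the constituent
  have hone : ∑ ψ : IrrCharacter G, m ψ * n ψ θ = 1 := by
    have h2 := hsumN θ hθ
    rw [h1] at h2
    exact_mod_cast h2.symm
  obtain ⟨μ, hμ⟩ : ∃ μ : IrrCharacter G, m μ * n μ θ ≠ 0 := by
    by_contra hcon
    push Not at hcon
    rw [Finset.sum_eq_zero fun ψ _ => hcon ψ] at hone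
    exact absurd hone (by norm_num)
  have hμ1 : m μ * n μ θ = 1 ∧ ∀ ψ : IrrCharacter G, ψ ≠ μ → m ψ * n ψ θ = 0 := by
    have h1 := hone
    rw [← Finset.add_sum_erase _ _ (Finset.mem_univ μ)] at h1
    have h2 : m μ * n μ θ = 1 := by omega
    refine ⟨h2, fun ψ hψ => ?_⟩
    have h3 : ∑ ψ ∈ Finset.univ.erase μ, m ψ * n ψ θ = 0 := by omega
    exact (Finset.sum_eq_zero_iff.1 h3) ψ (Finset.mem_erase.2 ⟨hψ, Finset.mem_univ ψ⟩)
  have hmμ : m μ = 1 := Nat.eq_one_of_mul_eq_one_right hμ1.1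
  obtain ⟨h0, hh0⟩ := hf
  have hother : ∀ ψ : IrrCharacter G, ψ ≠ μ → m ψ ≠ 0 → (ψ : G → ℂ) = 1 := by
    intro ψ hψ hm0
    refine eq_one_of_const ψ.2 hh0 ?_
    have hz : ∀ η : H → ℂ, IsIrrCharacter H η → η ≠ 1 → classInner ((ψ : G → ℂ) ∘ f) η = 0 := by
      intro η hη hη1
      by_contra hne
      have h2 : n ψ η ≠ 0 := by
        intro h3
        rw [hn ψ η hη, h3, Nat.cast_zero] at hne
        exact hne rfl
      have h3 : classInner (χ ∘ f) η ≠ 0 := by
        rw [hsumN η hη]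
        intro h4
        have h5 : ∑ ψ : IrrCharacter G, m ψ * n ψ η = 0 := by exact_mod_cast h4
        exact mul_ne_zero hm0 h2 ((Finset.sum_eq_zero_iff.1 h5) ψ (Finset.mem_univ ψ))
      have h4 := horb η hη hη1 h3 ψ
      rw [hn ψ η hη, hn ψ θ hθ] at h4
      have h5 : n ψ η = n ψ θ := by exact_mod_cast h4
      have h6 := hμ1.2 ψ hψ
      rw [← h5] at h6
      exact mul_ne_zero hm0 h2 h6
    have hcl : IsClassFunction H ((ψ : G → ℂ) ∘ f) :=
      isCharacter_isClassFunction (isCharacter_comp f (isIrr_isCharacter ψ.2))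
    have hcl1 : IsClassFunction H (classInner ((ψ : G → ℂ) ∘ f) 1 • (1 : H → ℂ)) := by
      intro x y
      simp
    have h5 : (ψ : G → ℂ) ∘ f = classInner ((ψ : G → ℂ) ∘ f) 1 • (1 : H → ℂ) := by
      refine classFunction_ext hcl hcl1 fun η hη => ?_
      rw [classInner_smul_left]
      by_cases h6 : η = 1
      · rw [h6, classInner_irr_self isIrr_one, mul_one]
      · rw [hz η hη h6, classInner_irr_ne isIrr_one hη (Ne.symm h6), mul_zero]
    have h6 := congrFun h5 h0
    have h7 := congrFun h5 1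
    simp only [Function.comp_apply, map_one, Pi.smul_apply, Pi.one_apply, smul_eq_mul, mul_one] at h6 h7
    rw [h6, h7]
  have hμ0 : (μ : G → ℂ) ≠ 1 := by
    intro h
    have h2 : classInner ((μ : G → ℂ) ∘ f) θ = 0 := by
      have : (μ : G → ℂ) ∘ f = 1 := by rw [h]; rfl
      rw [this]
      exact classInner_irr_ne isIrr_one hθ (Ne.symm hθ1)
    rw [hn μ θ hθ] at h2
    have h3 : n μ θ = 0 := by exact_mod_cast h2
    rw [h3, mul_zero] at hμ
    exact hμ rfl
  let one : IrrCharacter G := ⟨1, isIrr_one⟩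
  have hone' : one ≠ μ := fun h => hμ0 (by rw [← h])
  refine ⟨μ, hμ0, m one, fun g => ?_⟩
  have h2 : χ g = ∑ ψ : IrrCharacter G, (m ψ : ℂ) * (ψ : G → ℂ) g := by
    rw [hm]
    simp [Finset.sum_apply]
  rw [h2, ← Finset.add_sum_erase _ _ (Finset.mem_univ μ),
    ← Finset.add_sum_erase _ _ (Finset.mem_erase.2 ⟨hone', Finset.mem_univ one⟩), hmμ,
    Finset.sum_eq_zero]
  · have : (one : G → ℂ) g = 1 := rfl
    rw [this]
    push_cast
    ring
  · intro ψ hψ
    rw [Finset.mem_erase, Finset.mem_erase] at hψ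
    by_cases h3 : m ψ = 0
    · rw [h3]; simp
    · exact absurd (Subtype.ext (hother ψ hψ.2.1 h3)) hψ.1

end Cfsg.Agent.H101.K4
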