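import Cfsg.Agent.LThreeCo1.Class
import Cfsg.Agent.H419.LeechIrr
import Mathlib.NumberTheory.LegendreSymbol.AddCharacter

/-!
# The weights of the subgroup `3^6` of `Co0` on the 24-dimensional space (helper101)

`e 1, …, e 6` of `LThreeCo1.Rel` generate `A = 3^6`; the twelve vectors `v i = a i + ω b i` and their conjugates are
eigenvectors with different weights `± cc i`.

* `chi_Ph` : the trace of `Ph a t` is `∑ i, (ee (cc i · t) + ee (- cc i · t))`.
-/

set_option autoImplicit false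
set_option maxRecDepth 20000

namespace Cfsg.Agent.H101.K4.SuzWt

open Cfsg Cfsg.Agent.LThreeCo1.Ev Cfsg.Agent.SporadicStructure.Co0Matrix Cfsg.Agent.CoOneType.CoEval
open Cfsg.Agent.LThreeCo1.Mats Cfsg.Agent.LThreeCo1.AGrp Cfsg.Agent.LThreeCo1.Rel Cfsg.Agent.LThreeCo1.Class
open Cfsg.Agent.SporadicA Cfsg.Agent.H419.LeechIrr

/-- real parts (in the basis `1, ω`) -/
def aL (i : ℕ) : List ℤ := [
  [24, 8, 8, 24, -8, 8, 8, 8, 8, 8, 8, 8, 24, 8, -8, 8, 8, -8, 8, 8, -8, -8, 8, 8],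
  [24, -8, 8, -24, 8, 8, -8, 8, -8, 8, -8, -8, 24, -8, 8, -8, -8, 8, -8, -8, 8, 8, 8, 8],
  [0, 0, 0, 0, 8, 0, 0, 0, 8, 0, -8, 0, 0, 0, 8, 0, 8, 8, 8, 0, 8, -16, 0, 0],
  [0, 0, 0, 0, 8, 0, 0, 0, 0, 0, -8, 0, 0, 8, 8, 8, 0, 8, 0, 8, -16, 8, 0, 0],
  [24, 8, 8, 24, 8, -8, 8, -8, -8, 8, -8, 8, -24, -8, 8, -8, -8, 8, -8, -8, 8, 8, 8, -8],
  [24, -8, 8, -24, -8, -8, -8, -8, 8, 8, 8, -8, -24, 8, -8, 8, 8, -8, 8, 8, -8, -8, 8, -8],
  [0, 24, 0, 0, 8, 0, 0, 0, -8, 0, 0, -24, 0, 16, 8, -8, 16, -16, -8, -8, 0, 0, 0, 0],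
  [0, 0, 24, 0, -8, 0, 0, 0, 8, -24, 0, 0, 0, 8, -8, -16, 8, 16, -16, 8, 0, 0, 0, 0],
  [0, 0, 24, 0, 8, 0, 0, 0, -8, -24, 0, 0, 0, -8, 8, 16, -8, -16, 16, -8, 0, 0, 0, 0],
  [0, 0, 0, 0, 8, -16, 0, 8, 0, 0, 0, 0, 0, -8, -8, 8, 8, 0, -8, 0, 0, 0, 0, 8],
  [0, 0, 0, 0, 8, 16, 0, -8, 0, 0, 0, 0, 0, -8, -8, 8, 8, 0, -8, 0, 0, 0, 0, -8],
  [0, 24, 0, 0, -8, 0, 0, 0, 8, 0, 0, -24, 0, -16, -8, 8, -16, 16, 8, 8, 0, 0, 0, 0]].getD i []

/-- coefficients of `ω` -/
def bL (i : ℕ) : List ℤ := [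
  [0, 16, 16, 0, 0, 16, 16, 16, 0, 16, 16, 16, 0, 0, 0, 0, 0, 0, 0, 0, -16, -16, 16, 16],
  [0, -16, 16, 0, 0, 16, -16, 16, 0, 16, -16, -16, 0, 0, 0, 0, 0, 0, 0, 0, 16, 16, 16, 16],
  [0, 0, 0, 0, 0, 0, 0, 0, 8, 0, -16, 0, 0, -8, 0, -8, 8, 0, 8, -8, -8, -8, 0, 0],
  [0, 0, 0, 0, 0, 0, 0, 0, -8, 0, -16, 0, 0, 8, 0, 8, -8, 0, -8, 8, -8, -8, 0, 0],
  [0, 16, 16, 0, 0, -16, 16, -16, 0, 16, -16, 16, 0, 0, 0, 0, 0, 0, 0, 0, 16, 16, 16, -16],
  [0, -16, 16, 0, 0, -16, -16, -16, 0, 16, 16, -16, 0, 0, 0, 0, 0, 0, 0, 0, -16, -16, 16, -16],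
  [0, 0, 0, 0, 16, 0, 24, 0, -16, 0, 0, -24, 0, 8, -8, -16, 8, -8, 8, 8, 0, 0, 0, 0],
  [0, 0, 0, 0, -16, 0, 0, 0, -8, -24, 0, 0, 0, -8, 8, -8, 16, 8, -8, 16, 0, 0, 24, 0],
  [0, 0, 0, 0, 16, 0, 0, 0, 8, -24, 0, 0, 0, 8, -8, 8, -16, -8, 8, -16, 0, 0, 24, 0],
  [0, 0, 0, 0, 0, -8, 0, 16, -8, 0, 0, 0, 0, 0, -8, 8, 8, 8, 0, -8, 0, 0, 0, -8],
  [0, 0, 0, 0, 0, 8, 0, -16, -8, 0, 0, 0, 0, 0, -8, 8, 8, 8, 0, -8, 0, 0, 0, 8],
  [0, 0, 0, 0, -16, 0, 24, 0, 16, 0, 0, -24, 0, -8, 8, 16, -8, 8, -8, -8, 0, 0, 0, 0]].getD i []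

/-- the weights -/
def cN (i j : ℕ) : ℕ := ([[1, 1, 1, 1, 0, 0], [1, 1, 1, 1, 1, 0], [1, 1, 1, 2, 2, 2], [1, 1, 2, 1, 0, 0], [1, 1, 2, 2, 0, 0], [1, 1, 2, 2, 0, 1], [1, 2, 1, 1, 2, 1], [1, 2, 1, 2, 0, 2], [1, 2, 1, 2, 1, 1], [1, 2, 2, 1, 1, 2], [1, 2, 2, 1, 2, 0], [1, 2, 2, 2, 0, 0]].getD i []).getD j 0

/-- the check of the eigenvalue at the coordinate `k` -/
def chkC (c : ℕ) (x y a b : ℤ) : Bool :=
  match c with
  | 0 => decide (x = a) && decide (y = b)
  | 1 => decide (x = -b) && decide (y = a - b)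
  | _ => decide (x = b - a) && decide (y = -a)

/-- the check of the eigenvalue -/
def chkE (i j : ℕ) : Bool :=
  let A := apZ (M (j + 1)) (aL i)
  let B := apZ (M (j + 1)) (bL i)
  (List.range 24).all fun k => chkC (cN i j) (A.getD k 0) (B.getD k 0) ((aL i).getD k 0) ((bL i).getD k 0)

theorem k_eig : ((List.range 12).all fun i => (List.range 6).all fun j => chkE i j) = true := by decide +kernel

theorem k_lee : ((List.range 12).all fun i => leechB (aL i) && leechB (bL i)) = true := by decide +kernel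

theorem k_nz : ((List.range 12).all fun i => (List.range 24).any fun k => !decide ((aL i).getD k 0 = 0)) = true := by
  decide +kernel

theorem lee (i : Fin 12) : leechB (aL i) = true ∧ leechB (bL i) = true := by
  have := all_range k_lee i.2
  rwa [Bool.and_eq_true] at this

/-- the vector `a i` -/
def av (i : Fin 12) : leechLattice := ⟨vec (aL i), vec_mem_of_leechB (lee i).1⟩

/-- the vector `b i` -/
def bv (i : Fin 12) : leechLattice := ⟨vec (bL i), vec_mem_of_leechB (lee i).2⟩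

/-- the additive character -/
noncomputable def ee (z : ZMod 3) : ℂ := ZMod.stdAddChar z

theorem ee_zero : ee 0 = 1 := AddChar.map_zero_eq_one _

theorem ee_add (x y : ZMod 3) : ee (x + y) = ee x * ee y := AddChar.map_add_eq_mul _ _ _

theorem ee_inj {x y : ZMod 3} (h : ee x = ee y) : x = y := ZMod.injective_stdAddChar h

theorem ee_ne {x : ZMod 3} (h : x ≠ 0) : ee x ≠ 1 := fun h1 => h (ee_inj (by rw [h1, ee_zero]))

theorem ee_two : ee 2 = ee 1 * ee 1 := by rw [← ee_add]; rfl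

theorem ee_cube : ee 1 * ee 1 * ee 1 = 1 := by
  rw [← ee_add, ← ee_add]
  exact ee_zero

/-- `ω² + ω + 1 = 0` -/
theorem ee_quad : ee 1 * ee 1 + ee 1 + 1 = 0 := by
  have h1 : (ee 1 - 1) * (ee 1 * ee 1 + ee 1 + 1) = 0 := by linear_combination ee_cube
  rcases mul_eq_zero.1 h1 with h | h
  · exact absurd (sub_eq_zero.1 h) (ee_ne (by decide))
  · exact h

theorem ee_pow (x : ZMod 3) (n : ℕ) : ee x ^ n = ee (n * x) := by
  induction n with
  | zero => rw [pow_zero, Nat.cast_zero, zero_mul, ee_zero]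
  | succ n ih => rw [pow_succ, ih, ← ee_add]; congr 1; push_cast; ring

theorem conj_ee (x : ZMod 3) : (starRingEnd ℂ) (ee x) = ee (-x) := by
  unfold ee
  rw [AddChar.map_neg_eq_conj]

/-- the weights -/
def cc (i : Fin 12) : V := fun j => (cN i j.val : ZMod 3)

/-- the eigenvector for `cc i` -/
noncomputable def ev (i : Fin 12) : GolayPt → ℂ := toC (av i) + ee 1 • toC (bv i)

/-- the eigenvector for `- cc i` -/
noncomputable def evb (i : Fin 12) : GolayPt → ℂ := toC (av i) + (ee 1 * ee 1) • toC (bv i)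

theorem e_apply (i : Fin 12) (j : Fin 6) (p : GolayPt) :
    chkC (cN i j) (((a j • av i : leechLattice) : GolayPt → ℤ) p) (((a j • bv i : leechLattice) : GolayPt → ℤ) p)
      ((av i : GolayPt → ℤ) p) ((bv i : GolayPt → ℤ) p) = true := by
  have h1 : ((a j • av i : leechLattice) : GolayPt → ℤ) = vec (apZ (M (j.val + 1)) (aL i)) := by
    rw [apZ_eq]
    refine (rep (j.val + 1)).apply ?_ rfl
    have := (lee i).1
    simp only [leechB, Bool.and_eq_true] at this
    exact (Nat.eq_of_beq_eq_true this.1.1.1).le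
  have h2 : ((a j • bv i : leechLattice) : GolayPt → ℤ) = vec (apZ (M (j.val + 1)) (bL i)) := by
    rw [apZ_eq]
    refine (rep (j.val + 1)).apply ?_ rfl
    have := (lee i).2
    simp only [leechB, Bool.and_eq_true] at this
    exact (Nat.eq_of_beq_eq_true this.1.1.1).le
  rw [h1, h2]
  exact all_range (all_range (all_range k_eig i.2) j.2) (GolayBase.idx_lt p)

theorem chkC_spec {c : ℕ} (hc : c < 3) {x y a b : ℤ} (h : chkC c x y a b = true) :
    (x : ℂ) + ee 1 * y = ee c * (a + ee 1 * b) ∧ (x : ℂ) + ee 1 * ee 1 * y = ee (-c) * (a + ee 1 * ee 1 * b) := by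
  have h2 : ee (-1 : ZMod 3) = ee 1 * ee 1 := ee_two
  have h3 : ee (-2 : ZMod 3) = ee 1 := rfl
  have hq := ee_quad
  have hc3 := ee_cube
  interval_cases c
  · simp only [chkC, Bool.and_eq_true, decide_eq_true_eq] at h
    obtain ⟨rfl, rfl⟩ := h
    simp [ee_zero]
  · simp only [chkC, Bool.and_eq_true, decide_eq_true_eq] at h
    obtain ⟨rfl, rfl⟩ := h
    push_cast
    rw [h2]
    constructor
    · linear_combination (-b : ℂ) * hq
    · linear_combination (-b : ℂ) * hq - (ee 1 : ℂ) * (b : ℂ) * hc3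
  · simp only [chkC, Bool.and_eq_true, decide_eq_true_eq] at h
    obtain ⟨rfl, rfl⟩ := h
    push_cast
    rw [h3, ee_two]
    constructor
    · linear_combination (-a : ℂ) * hq - (b : ℂ) * hc3
    · linear_combination (-a : ℂ) * hq - (b : ℂ) * hc3

theorem eig (i : Fin 12) (j : Fin 6) : repC (a j) (ev i) = ee (cc i j) • ev i ∧
    repC (a j) (evb i) = ee (-(cc i j)) • evb i := by
  have hc : cN i j < 3 := by
    revert i j
    decide
  constructor
  · unfold ev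
    rw [map_add, map_smul, repC_toC, repC_toC]
    funext p
    exact (chkC_spec hc (e_apply i j p)).1
  · unfold evb
    rw [map_add, map_smul, repC_toC, repC_toC]
    funext p
    exact (chkC_spec hc (e_apply i j p)).2

/-- the pairing -/
def dt (c t : V) : ZMod 3 := t 0 * c 0 + (t 1 * c 1 + (t 2 * c 2 + (t 3 * c 3 + (t 4 * c 4 + t 5 * c 5))))

theorem dt_add (c s t : V) : dt c (s + t) = dt c s + dt c t := by
  unfold dt
  simp only [Pi.add_apply]
  ring

theorem dt_neg_left (c t : V) : dt (-c) t = -dt c t := by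
  unfold dt
  simp only [Pi.neg_apply]
  ring

theorem dt_sub_left (c d t : V) : dt (c - d) t = dt c t - dt d t := by
  unfold dt
  simp only [Pi.sub_apply]
  ring

theorem dt_zero (c : V) : dt c 0 = 0 := by
  unfold dt
  simp

theorem repC_pow {g : Co0} {x : ℂ} {v : GolayPt → ℂ} (h : repC g v = x • v) (n : ℕ) : repC (g ^ n) v = x ^ n • v := by
  induction n with
  | zero => rw [pow_zero, pow_zero, map_one, one_smul]; rfl
  | succ n ih =>
    rw [pow_succ, map_mul]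
    show repC (g ^ n) (repC g v) = _
    rw [h, map_smul, ih, smul_smul, pow_succ, mul_comm]

theorem eig_Ph {c : V} {v : GolayPt → ℂ} (h : ∀ j, repC (a j) v = ee (c j) • v) (t : V) :
    repC (Ph a t) v = ee (dt c t) • v := by
  have h1 : ∀ j, repC (a j ^ (t j).val) v = ee (t j * c j) • v := by
    intro j
    rw [repC_pow (h j), ee_pow, ZMod.natCast_zmod_val]
  have h2 : ∀ g k : Co0, ∀ x y : ZMod 3, repC g v = ee x • v → repC k v = ee y • v →
      repC (g * k) v = ee (x + y) • v := by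
    intro g k x y hg hk
    rw [map_mul]
    show repC g (repC k v) = _
    rw [hk, map_smul, hg, smul_smul, ee_add, mul_comm]
  unfold Ph dt
  exact h2 _ _ _ _ (h1 0) (h2 _ _ _ _ (h1 1) (h2 _ _ _ _ (h1 2) (h2 _ _ _ _ (h1 3) (h2 _ _ _ _ (h1 4) (h1 5)))))

/-- all the vectors -/
noncomputable def uv : Fin 12 ⊕ Fin 12 → GolayPt → ℂ := Sum.elim ev evb

/-- all the weights -/
def wt : Fin 12 ⊕ Fin 12 → V := Sum.elim cc fun i => -cc i

theorem eig_uv (k : Fin 12 ⊕ Fin 12) (t : V) : repC (Ph a t) (uv k) = ee (dt (wt k) t) • uv k := by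
  rcases k with i | i
  · exact eig_Ph (fun j => (eig i j).1) t
  · exact eig_Ph (fun j => (eig i j).2) t

theorem wt_inj : Function.Injective wt := by decide +kernel

theorem ne_zero_of {x : ℤ} {y : ℤ} (hx : x ≠ 0) : (x : ℂ) + ee 1 * y ≠ 0 ∧ (x : ℂ) + ee 1 * ee 1 * y ≠ 0 := by
  have hq := ee_quad
  have hN : (x : ℂ) * x - x * y + y * y ≠ 0 := by
    intro h
    have h1 : x * x - x * y + y * y = 0 := by exact_mod_cast h
    have h2 : (2 * y - x) ^ 2 + 3 * x ^ 2 = 0 := by linear_combination 4 * h1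
    have h3 : 0 < x ^ 2 := by positivity
    nlinarith [sq_nonneg (2 * y - x)]
  have key : ((x : ℂ) + ee 1 * y) * ((x : ℂ) + ee 1 * ee 1 * y) = (x : ℂ) * x - x * y + y * y := by
    linear_combination (x : ℂ) * y * hq + (y : ℂ) * y * ee_cube
  rw [← key] at hN
  exact ⟨left_ne_zero_of_mul hN, right_ne_zero_of_mul hN⟩

theorem uv_ne (k : Fin 12 ⊕ Fin 12) : uv k ≠ 0 := by
  have key : ∀ i : Fin 12, ∃ p : GolayPt, (av i : GolayPt → ℤ) p ≠ 0 := by
    intro i
    have h := all_range k_nz i.2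
    rw [List.any_eq_true] at h
    obtain ⟨k, hk, h1⟩ := h
    rw [List.mem_range] at hk
    refine ⟨GolayBase.pt k, fun h2 => ?_⟩
    have h3 : (av i : GolayPt → ℤ) (GolayBase.pt k) = (aL i).getD (GolayBase.idx (GolayBase.pt k)) 0 := rfl
    rw [GolayBase.idx_pt hk, h2] at h3
    replace h3 := h3.symm
    rw [h3] at h1
    simp at h1
  rcases k with i | i
  · intro h
    obtain ⟨p, hp⟩ := key i
    exact (ne_zero_of hp).1 (congrFun h p)
  · intro h
    obtain ⟨p, hp⟩ := key i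
    exact (ne_zero_of hp).2 (congrFun h p)

/-- orthogonality -/
theorem sum_ee {c : V} (hc : c ≠ 0) : ∑ t : V, ee (dt c t) = 0 := by
  obtain ⟨s, hs⟩ : ∃ s : V, dt c s ≠ 0 := by
    revert hc
    revert c
    decide +kernel
  have h1 : ∑ t : V, ee (dt c t) = ee (dt c s) * ∑ t : V, ee (dt c t) := by
    rw [Finset.mul_sum, ← Equiv.sum_comp (Equiv.addLeft s)]
    refine Finset.sum_congr rfl fun t _ => ?_
    rw [Equiv.coe_addLeft, dt_add, ee_add]
  have h2 : (ee (dt c s) - 1) * ∑ t : V, ee (dt c t) = 0 := by linear_combination -h1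
  rcases mul_eq_zero.1 h2 with h | h
  · exact absurd (sub_eq_zero.1 h) (ee_ne hs)
  · exact h

theorem card_V : Fintype.card V = 729 := by
  rw [Fintype.card_fun, Fintype.card_fin, ZMod.card]
  norm_num

theorem sum_ee_sub (c d : V) : ∑ t : V, ee (dt c t) * ee (-dt d t) = if c = d then 729 else 0 := by
  have h1 : ∀ t : V, ee (dt c t) * ee (-dt d t) = ee (dt (c - d) t) := by
    intro t
    rw [← ee_add, dt_sub_left, sub_eq_add_neg]
  rw [Finset.sum_congr rfl fun t _ => h1 t]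
  split_ifs with h
  · subst h
    have h2 : ∀ t : V, ee (dt (c - c) t) = 1 := by
      intro t
      rw [dt_sub_left, sub_self, ee_zero]
    rw [Finset.sum_congr rfl fun t _ => h2 t, Finset.sum_const, Finset.card_univ, card_V]
    norm_num
  · exact sum_ee (sub_ne_zero.2 h)

theorem linInd : LinearIndependent ℂ uv := by
  rw [Fintype.linearIndependent_iff]
  intro g hg k
  -- the projection on the weight of `k`
  have h1 : ∑ t : V, ee (-dt (wt k) t) • repC (Ph a t) (∑ l, g l • uv l) = 0 := by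
    rw [hg]
    simp
  have h2 : ∑ t : V, ee (-dt (wt k) t) • repC (Ph a t) (∑ l, g l • uv l) =
      ∑ l, (g l * ∑ t : V, ee (dt (wt l) t) * ee (-dt (wt k) t)) • uv l := by
    have h3 : ∀ t : V, ee (-dt (wt k) t) • repC (Ph a t) (∑ l, g l • uv l) =
        ∑ l, (g l * (ee (dt (wt l) t) * ee (-dt (wt k) t))) • uv l := by
      intro t
      rw [map_sum, Finset.smul_sum]
      refine Finset.sum_congr rfl fun l _ => ?_
      rw [map_smul, eig_uv, smul_smul, smul_smul]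
      congr 1
      ring
    rw [Finset.sum_congr rfl fun t _ => h3 t, Finset.sum_comm]
    refine Finset.sum_congr rfl fun l _ => ?_
    rw [← Finset.sum_smul, Finset.mul_sum]
  rw [h2, Finset.sum_eq_single k] at h1
  · rw [sum_ee_sub, if_pos rfl] at h1
    rcases smul_eq_zero.1 h1 with h | h
    · rcases mul_eq_zero.1 h with h | h
      · exact h
      · norm_num at h
    · exact absurd h (uv_ne k)
  · intro l _ hl
    rw [sum_ee_sub, if_neg (fun h => hl (wt_inj h)), mul_zero, zero_smul]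
  · intro h
    exact absurd (Finset.mem_univ k) h

open Cfsg.Agent.Co2Type.Mono in
/-- **The trace of the elements of `3^6`.** -/
theorem chi_Ph (t : V) : (tr8 (Ph a t) : ℂ) / 8 = ∑ i : Fin 12, (ee (dt (cc i) t) + ee (-dt (cc i) t)) := by
  rw [← trace_repC]
  have hcard : Fintype.card (Fin 12 ⊕ Fin 12) = Module.finrank ℂ (GolayPt → ℂ) := by
    rw [Module.finrank_fintype_fun_eq_card]
    decide
  let b := basisOfLinearIndependentOfCardEqFinrank linInd hcard
  have hb : ∀ k, b k = uv k := fun k => by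
    rw [coe_basisOfLinearIndependentOfCardEqFinrank]
  rw [LinearMap.trace_eq_matrix_trace ℂ b, Matrix.trace]
  have h1 : ∀ k, (LinearMap.toMatrix b b (repC (Ph a t))).diag k = ee (dt (wt k) t) := by
    intro k
    rw [Matrix.diag_apply, LinearMap.toMatrix_apply, hb, eig_uv, ← hb, map_smul, Module.Basis.repr_self]
    simp
  rw [Finset.sum_congr rfl fun k _ => h1 k, Fintype.sum_sum_type, ← Finset.sum_add_distrib]
  refine Finset.sum_congr rfl fun i _ => ?_
  rw [← dt_neg_left]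
  rfl

end Cfsg.Agent.H101.K4.SuzWt
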